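import Mathlib
import Cfsg.Agent.Chars.Linear
import Cfsg.Agent.BlockChar.CharCount
import Cfsg.Agent.Chars2.DegreeInherit

/-!
# Counting characters of degree prime to `ℓ` in some small groups
-/

set_option autoImplicit false
set_option linter.style.haveILetI false

open Cfsg Cfsg.Agent.Chars
open scoped commutatorElement

namespace Cfsg.Agent.TwoGroups.McKaySL2

universe u v

/-- The number of irreducible characters of degree prime to `ℓ`. -/
noncomputable def cnt (ℓ : ℕ) (H : Type u) [Group H] : ℕ :=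
  Nat.card {χ : IrrCharacter H // ¬ ℓ ∣ charDegree (χ : H → ℂ)}

variable {H : Type u} [Group H] [Finite H]

theorem cnt_eq_classes {ℓ : ℕ} (h : ∀ χ : IrrCharacter H, ¬ ℓ ∣ charDegree (χ : H → ℂ)) :
    cnt ℓ H = Nat.card (ConjClasses H) := by
  rw [← card_irr_eq_card_conjClasses]
  exact Nat.card_congr (Equiv.subtypeUnivEquiv h)

theorem cnt_eq_of_not_dvd {ℓ : ℕ} (h : ¬ ℓ ∣ Nat.card H) :
    cnt ℓ H = Nat.card (ConjClasses H) := by
  haveI := Fintype.ofFinite H
  exact cnt_eq_classes fun χ hd => h (hd.trans (BlockChar.charDegree_dvd_card χ.2))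

theorem cnt_eq_of_abelian {ℓ : ℕ} (A : Subgroup H) [A.Normal]
    (hA : ∀ a ∈ A, ∀ b ∈ A, a * b = b * a) (hi : ¬ ℓ ∣ A.index) :
    cnt ℓ H = Nat.card (ConjClasses H) :=
  cnt_eq_classes fun χ hd => hi (hd.trans (Chars2.charDegree_dvd_index hA χ))

omit [Finite H] in
/-- The number of classes is invariant under isomorphism. -/
theorem classes_congr {K : Type v} [Group K] (e : H ≃* K) :
    Nat.card (ConjClasses H) = Nat.card (ConjClasses K) := by
  refine Nat.card_eq_of_bijective (ConjClasses.map e.toMonoidHom) ⟨?_, ConjClasses.map_surjective e.surjective⟩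
  intro a b h
  obtain ⟨a, rfl⟩ := ConjClasses.mk_surjective a
  obtain ⟨b, rfl⟩ := ConjClasses.mk_surjective b
  have h' : IsConj (e a) (e b) := ConjClasses.mk_eq_mk_iff_isConj.1 h
  obtain ⟨c, hc⟩ := isConj_iff.1 h'
  exact ConjClasses.mk_eq_mk_iff_isConj.2 (isConj_iff.2 ⟨e.symm c, e.injective (by simpa using hc)⟩)

/-- Normalisers of two Sylow subgroups are isomorphic. -/
theorem sylow_normalizer_iso {G : Type u} [Group G] [Finite G] {p : ℕ} [Fact p.Prime]
    (P R : Sylow p G) :
    Nonempty (Subgroup.normalizer ((R : Subgroup G) : Set G) ≃*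
      Subgroup.normalizer ((P : Subgroup G) : Set G)) := by
  obtain ⟨g, hg⟩ := MulAction.exists_smul_eq G R P
  set φ := MulAut.conj g
  have hP : (P : Subgroup G) = (R : Subgroup G).map φ.toMonoidHom := by rw [← hg]; rfl
  have hN : Subgroup.normalizer ((P : Subgroup G) : Set G) =
      (Subgroup.normalizer ((R : Subgroup G) : Set G)).map φ.toMonoidHom := by
    rw [hP]
    exact (Subgroup.map_equiv_normalizer_eq _ φ).symm
  exact ⟨((Subgroup.normalizer ((R : Subgroup G) : Set G)).equivMapOfInjective φ.toMonoidHom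
    φ.injective).trans (MulEquiv.subgroupCongr hN.symm)⟩

theorem charDegree_eq_one_iff (χ : IrrCharacter H) :
    charDegree (χ : H → ℂ) = 1 ↔ (χ : H → ℂ) 1 = 1 := by
  haveI := Fintype.ofFinite H
  rw [← BlockChar.charDegree_cast (irr_isCharacter χ), Nat.cast_eq_one]

/-- In a 2-group the characters of odd degree are linear. -/
theorem cnt_two_of_isPGroup (h : IsPGroup 2 H) : cnt 2 H = (commutator H).index := by
  haveI := Fintype.ofFinite H
  rw [← card_linear]
  refine Nat.card_congr (Equiv.subtypeEquivRight fun χ => ?_)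
  rw [← charDegree_eq_one_iff]
  refine ⟨fun hd => ?_, fun h1 => by rw [h1]; decide⟩
  obtain ⟨n, hn⟩ := IsPGroup.iff_card.1 h
  have hdvd := BlockChar.charDegree_dvd_card χ.2
  rw [hn] at hdvd
  obtain ⟨j, -, hj⟩ := (Nat.dvd_prime_pow Nat.prime_two).1 hdvd
  rcases Nat.eq_zero_or_pos j with rfl | hj0
  · rw [hj, pow_zero]
  · exact absurd (hj ▸ dvd_pow_self 2 hj0.ne') hd

/-- The derived subgroup of a generalised quaternion group has index four. -/
theorem commutator_index_quaternion {k : ℕ} (hk : 1 ≤ k) :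
    (commutator (QuaternionGroup (2 ^ k))).index = 4 := by
  haveI : NeZero (2 ^ k) := ⟨pow_ne_zero _ two_ne_zero⟩
  have hdvd : 2 ∣ 2 * 2 ^ k := Dvd.intro _ rfl
  let c : ZMod (2 * 2 ^ k) →+* ZMod 2 := ZMod.castHom hdvd _
  have hpow : ((2 ^ k : ℕ) : ZMod 2) = 0 := by
    rw [ZMod.natCast_eq_zero_iff]
    exact dvd_pow_self 2 (by omega)
  have hpow' : c ((2 ^ k : ℕ) : ZMod (2 * 2 ^ k)) = 0 := by rw [map_natCast]; exact hpow
  let f : QuaternionGroup (2 ^ k) → Multiplicative (ZMod 2 × ZMod 2) := fun g =>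
    match g with
    | QuaternionGroup.a i => Multiplicative.ofAdd (c i, 0)
    | QuaternionGroup.xa i => Multiplicative.ofAdd (c i, 1)
  have hneg : ∀ x : ZMod 2, -x = x := by decide
  let ψ : QuaternionGroup (2 ^ k) →* Multiplicative (ZMod 2 × ZMod 2) := MonoidHom.mk' f (by
    rintro (i | i) (j | j)
    all_goals simp only [QuaternionGroup.a_mul_a, QuaternionGroup.a_mul_xa, QuaternionGroup.xa_mul_a,
      QuaternionGroup.xa_mul_xa, f, ← ofAdd_add, Prod.mk_add_mk]
    · rw [map_add, zero_add]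
    · rw [map_sub, sub_eq_add_neg, hneg, add_comm, zero_add]
    · rw [map_add, add_zero]
    · refine congrArg Multiplicative.ofAdd (Prod.ext ?_ (show (0 : ZMod 2) = 1 + 1 from rfl))
      show c _ = c i + c j
      rw [map_sub, map_add, hpow', zero_add, sub_eq_add_neg, hneg, add_comm])
  have hsurj : Function.Surjective ψ := by
    intro y
    obtain ⟨⟨u, w⟩, rfl⟩ := Multiplicative.ofAdd.surjective y
    obtain ⟨i, rfl⟩ := ZMod.ringHom_surjective c u
    have hw : w = 0 ∨ w = 1 := by revert w; decide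
    rcases hw with rfl | rfl
    · exact ⟨QuaternionGroup.a i, rfl⟩
    · exact ⟨QuaternionGroup.xa i, rfl⟩
  have hker : ψ.ker = commutator (QuaternionGroup (2 ^ k)) := by
    refine le_antisymm (fun g hg => ?_) (Abelianization.commutator_subset_ker ψ)
    rw [MonoidHom.mem_ker] at hg
    rcases g with i | i
    · have hi : c i = 0 := congrArg (fun z => (Multiplicative.toAdd z).1) hg
      obtain ⟨j, rfl⟩ : ∃ j, i = 2 * j := by
        obtain ⟨n, rfl⟩ := ZMod.natCast_zmod_surjective i
        rw [map_natCast, ZMod.natCast_eq_zero_iff] at hi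
        obtain ⟨m, rfl⟩ := hi
        exact ⟨(m : ℕ), by push_cast; ring⟩
      have : QuaternionGroup.a (2 * j) = ⁅QuaternionGroup.a j, QuaternionGroup.xa (n := 2 ^ k) 0⁆ := by
        rw [eq_comm, commutatorElement_def, mul_inv_eq_iff_eq_mul, mul_inv_eq_iff_eq_mul]
        simp only [QuaternionGroup.a_mul_xa, QuaternionGroup.xa_mul_a]
        congr 1
        ring
      rw [this, commutator_def]
      exact Subgroup.commutator_mem_commutator (Subgroup.mem_top _) (Subgroup.mem_top _)
    · have hi : (1 : ZMod 2) = 0 := congrArg (fun z => (Multiplicative.toAdd z).2) hg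
      exact absurd hi one_ne_zero
  rw [← hker, Subgroup.index_ker, MonoidHom.range_eq_top.2 hsurj, Subgroup.card_top]
  simp

theorem cnt_two_of_quaternion {k : ℕ} (hk : 1 ≤ k) (e : H ≃* QuaternionGroup (2 ^ k)) :
    cnt 2 H = 4 := by
  haveI : NeZero (2 ^ k) := ⟨pow_ne_zero _ two_ne_zero⟩
  have h2 : IsPGroup 2 H := IsPGroup.of_card (n := k + 2) (by
    rw [Nat.card_congr e.toEquiv, Nat.card_eq_fintype_card, QuaternionGroup.card, pow_add]
    ring)
  rw [cnt_two_of_isPGroup h2, ← commutator_index_quaternion hk]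
  exact Nat.card_congr e.abelianizationCongr.toEquiv

/-- A group of order 24 whose derived subgroup has index 3 has four characters of odd degree. -/
theorem cnt_two_of_card_24 (hc : Nat.card H = 24) (hi : (commutator H).index = 3) :
    cnt 2 H = 4 := by
  classical
  haveI := Fintype.ofFinite H
  set d : IrrCharacter H → ℕ := fun χ => charDegree (χ : H → ℂ) with hd
  have hsq : ∑ χ : IrrCharacter H, d χ ^ 2 = 24 := by
    rw [← hc, ← Nat.cast_inj (R := ℂ), ← sum_sq_apply_one, Nat.cast_sum]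
    exact Finset.sum_congr rfl fun χ _ => by
      rw [Nat.cast_pow, BlockChar.charDegree_cast (irr_isCharacter χ)]
  have hval : ∀ χ, d χ = 1 ∨ d χ = 2 ∨ d χ = 3 ∨ d χ = 4 := by
    intro χ
    have h1 : d χ ∣ 24 := hc ▸ BlockChar.charDegree_dvd_card χ.2
    have h2 : d χ ^ 2 ≤ 24 := hsq ▸ Finset.single_le_sum (f := fun ψ => d ψ ^ 2)
      (fun ψ _ => Nat.zero_le _) (Finset.mem_univ χ)
    have h3 := BlockChar.charDegree_pos χ.2
    have h4 : d χ ≤ 4 := by
      by_contra h
      have := Nat.pow_le_pow_left (show 5 ≤ d χ by omega) 2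
      omega
    have h3' : 1 ≤ d χ := h3
    omega
  have hlin : (Finset.univ.filter fun χ => d χ = 1).card = 3 := by
    rw [← Fintype.card_subtype, ← Nat.card_eq_fintype_card, ← hi, ← card_linear]
    exact Nat.card_congr (Equiv.subtypeEquivRight fun χ => charDegree_eq_one_iff χ)
  set n := fun j => (Finset.univ.filter fun χ => d χ = j).card with hn
  have hsum : ∀ g : ℕ → ℕ, ∑ χ, g (d χ) = n 1 * g 1 + n 2 * g 2 + n 3 * g 3 + n 4 * g 4 := by
    intro g
    have hcs : ∀ j, n j * g j = ∑ χ : IrrCharacter H, if d χ = j then g j else 0 := fun j => by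
      rw [← Finset.sum_filter, Finset.sum_const, smul_eq_mul]
    simp only [hcs, ← Finset.sum_add_distrib]
    refine Finset.sum_congr rfl fun χ _ => ?_
    rcases hval χ with e | e | e | e <;> simp [e]
  have h1 := hsum fun m => m ^ 2
  rw [hsq] at h1
  have h2 := hsum fun m => if 2 ∣ m then 0 else 1
  have h3 : cnt 2 H = ∑ χ, (if 2 ∣ d χ then 0 else 1) := by
    rw [cnt, Nat.card_eq_fintype_card, Fintype.card_subtype, Finset.card_filter]
    exact Finset.sum_congr rfl fun χ _ => by rw [ite_not]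
  have hl : n 1 = 3 := hlin
  rw [h3, h2]
  norm_num
  omega

/-- An element of order dividing three fixing a non-trivial element of a normal subgroup of order
at most four fixes that subgroup. -/
theorem fixes_of_small {K : Subgroup H} [hK : K.Normal] (hc : Nat.card K ≤ 4) {x : H}
    (hx : x ^ 3 = 1) {z : H} (hz : z ∈ K) (hz1 : z ≠ 1) (hzx : x * z * x⁻¹ = z) :
    ∀ k ∈ K, x * k * x⁻¹ = k := by
  classical
  haveI := Fintype.ofFinite H
  intro k hk
  by_contra hne
  set k₁ := x * k * x⁻¹ with hk₁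
  set k₂ := x * k₁ * x⁻¹ with hk₂
  have hk3 : x * k₂ * x⁻¹ = k := by
    rw [hk₂, hk₁, show x * (x * (x * k * x⁻¹) * x⁻¹) * x⁻¹ = x ^ 3 * k * (x ^ 3)⁻¹ by
      simp only [pow_succ, pow_zero, one_mul]; group, hx]
    simp
  have inj : ∀ a b : H, x * a * x⁻¹ = x * b * x⁻¹ → a = b := fun a b e =>
    mul_left_cancel (mul_right_cancel e)
  have h12 : k₂ ≠ k₁ := fun e => hne (inj _ _ e)
  have h02 : k₂ ≠ k := fun e => h12 (inj _ _ (by rw [hk3, ← hk₂, e]))
  have hzk : ∀ a, x * a * x⁻¹ = z → a = z := fun a e => inj _ _ (e.trans hzx.symm)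
  have hk1 : k ≠ 1 := fun e => hne (by simp [hk₁, e])
  have hkz : k ≠ z := fun e => hne (by rw [hk₁, e, hzx])
  have hk1z : k₁ ≠ z := fun e => hkz (hzk _ e)
  have hk2z : k₂ ≠ z := fun e => hk1z (hzk _ e)
  have hk11 : k₁ ≠ 1 := fun e => hk1 (inj k 1 (e.trans (by simp)))
  have hk21 : k₂ ≠ 1 := fun e => hk11 (inj k₁ 1 (e.trans (by simp)))
  have hsub : ({1, z, k, k₁, k₂} : Finset H) ⊆ Finset.univ.filter fun a => a ∈ K := by
    intro a ha
    simp only [Finset.mem_insert, Finset.mem_singleton] at ha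
    refine Finset.mem_filter.2 ⟨Finset.mem_univ _, ?_⟩
    rcases ha with rfl | rfl | rfl | rfl | rfl
    exacts [K.one_mem, hz, hk, hK.conj_mem k hk x, hK.conj_mem _ (hK.conj_mem k hk x) x]
  have h5 := Finset.card_le_card hsub
  rw [Finset.card_insert_of_notMem (by simp [hz1.symm, hk1.symm, hk11.symm, hk21.symm]),
    Finset.card_insert_of_notMem (by simp [hkz.symm, hk1z.symm, hk2z.symm]),
    Finset.card_insert_of_notMem (by simp [Ne.symm hne, h02.symm]),
    Finset.card_insert_of_notMem (by simp [h12.symm]), Finset.card_singleton,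
    ← Fintype.card_subtype, ← Nat.card_eq_fintype_card] at h5
  have : Nat.card {a // a ∈ K} = Nat.card K := rfl
  omega

omit [Finite H] in
/-- An element of order dividing three fixing all commutators, these of 2-power order, is central. -/
theorem comm_of_commutator {x : H} (hx : x ^ 3 = 1) (hfix : ∀ k ∈ commutator H, x * k * x⁻¹ = k)
    (h8 : ∀ k ∈ commutator H, k ^ 8 = 1) (s : H) : x * s = s * x := by
  obtain ⟨c, hc⟩ : ∃ c, c = s⁻¹ * (x * s * x⁻¹) := ⟨_, rfl⟩
  have hcK : c ∈ commutator H := by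
    rw [show c = ⁅s⁻¹, x⁆ by rw [hc, commutatorElement_def]; group]
    exact Subgroup.commutator_mem_commutator (Subgroup.mem_top _) (Subgroup.mem_top _)
  have hxs : x * s * x⁻¹ = s * c := by rw [hc]; group
  have e1 : x * (x * s * x⁻¹) * x⁻¹ = s * c * c := by
    rw [hxs]
    calc x * (s * c) * x⁻¹ = (x * s * x⁻¹) * (x * c * x⁻¹) := by group
      _ = s * c * c := by rw [hxs, hfix c hcK]
  have e2 : x * (x * (x * s * x⁻¹) * x⁻¹) * x⁻¹ = s * c * c * c := by
    rw [e1]
    calc x * (s * c * c) * x⁻¹ = (x * s * x⁻¹) * (x * c * x⁻¹) * (x * c * x⁻¹) := by group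
      _ = s * c * c * c := by rw [hxs, hfix c hcK]
  have e3 : x * (x * (x * s * x⁻¹) * x⁻¹) * x⁻¹ = s := by
    rw [show x * (x * (x * s * x⁻¹) * x⁻¹) * x⁻¹ = x ^ 3 * s * (x ^ 3)⁻¹ by
      simp only [pow_succ, pow_zero, one_mul]; group, hx]
    simp
  rw [e3] at e2
  have h3 : c ^ 3 = 1 := by
    have : s * c ^ 3 = s * 1 := by
      rw [mul_one, pow_succ, pow_two, ← mul_assoc, ← mul_assoc]
      exact e2.symm
    exact mul_left_cancel this
  have hc1 : c = 1 := by
    have h83 : c ^ Nat.gcd 8 3 = 1 := pow_gcd_eq_one.2 ⟨h8 c hcK, h3⟩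
    rwa [show Nat.gcd 8 3 = 1 from rfl, pow_one] at h83
  rw [hc1, mul_one, mul_inv_eq_iff_eq_mul] at hxs
  exact hxs

end Cfsg.Agent.TwoGroups.McKaySL2
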