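import Mathlib
import Cfsg.Agent.KnownA.GL2.TorusNorm
import Cfsg.Agent.TwoGroups.McKaySL2.Groups

/-!
# The characters of `SL₂(q)` of degree prime to `ℓ`
-/

set_option autoImplicit false
set_option linter.style.haveILetI false
set_option linter.unusedSectionVars false

open Cfsg Matrix Cfsg.Agent.KnownA.GL2

namespace Cfsg.Agent.TwoGroups.McKaySL2

variable {F : Type*} [Field F] [Fintype F] [DecidableEq F]

/-- `1` when `ℓ` does not divide `d`, and `0` otherwise. -/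
def wt (ℓ d : ℕ) : ℕ := if ℓ ∣ d then 0 else 1

theorem wt_zero {ℓ d : ℕ} (h : ℓ ∣ d) : wt ℓ d = 0 := if_pos h

theorem wt_one {ℓ d : ℕ} (h : ¬ ℓ ∣ d) : wt ℓ d = 1 := if_neg h

theorem cnt_SL (hodd : Odd (Fintype.card F)) (ℓ : ℕ) :
    cnt ℓ (SpecialLinearGroup (Fin 2) F) =
      wt ℓ 1 + wt ℓ (Fintype.card F) + nK (F := F) KP * wt ℓ (Fintype.card F + 1) +
        2 * wt ℓ ((Fintype.card F + 1) / 2) + nK (F := F) KB * wt ℓ (Fintype.card F - 1) +
          2 * wt ℓ ((Fintype.card F - 1) / 2) := by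
  classical
  let _ : Fintype (IrrCharacter (SpecialLinearGroup (Fin 2) F)) := Fintype.ofFinite _
  have hC := (counts_odd hodd).2.2
  conv_rhs => rw [← one_mul (wt ℓ 1), ← one_mul (wt ℓ (Fintype.card F))]
  rw [show (1 : ℕ) * wt ℓ 1 = nK (F := F) KT * wt ℓ 1 by rw [nK_T],
    show (1 : ℕ) * wt ℓ (Fintype.card F) = nK (F := F) KS * wt ℓ (Fintype.card F) by rw [nK_S],
    show 2 * wt ℓ ((Fintype.card F + 1) / 2) = nK (F := F) IsHalfS * wt ℓ ((Fintype.card F + 1) / 2) by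
      rw [nK_H hodd],
    show 2 * wt ℓ ((Fintype.card F - 1) / 2) = nK (F := F) KC * wt ℓ ((Fintype.card F - 1) / 2) by
      rw [hC]]
  simp only [nK_eq_sum, Finset.sum_mul, ← Finset.sum_add_distrib]
  rw [cnt, Nat.card_eq_fintype_card, Fintype.card_subtype, Finset.card_filter]
  refine Finset.sum_congr rfl fun χ _ => ?_
  obtain ⟨d, hd, h⟩ := kinds χ.2
  have hdeg : charDegree (χ : SpecialLinearGroup (Fin 2) F → ℂ) = d := by simp [charDegree, hd]
  rw [hdeg, ite_not, ← wt]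
  rcases h with ⟨a, b, c, e, f, g, h⟩ | ⟨a, b, c, e, f, g, h⟩ | ⟨a, b, c, e, f, g, h⟩ |
    ⟨a, b, c, e, f, g, h⟩ | ⟨a, b, c, e, f, g, h⟩ | ⟨a, b, c, e, f, g, h⟩ <;>
    simp only [a, b, c, e, f, g, if_true, if_false, one_mul, zero_mul, add_zero, zero_add] <;>
    congr 1 <;> omega

theorem cnt_SL_char (hodd : Odd (Fintype.card F)) {ℓ : ℕ} (hℓ : ℓ.Prime) (h : ℓ ∣ Fintype.card F) :
    cnt ℓ (SpecialLinearGroup (Fin 2) F) = Fintype.card F + 3 := by
  have h2 := Nat.odd_iff.1 hodd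
  have hne : ∀ d, ℓ ∣ d + 1 → ¬ ℓ ∣ d := fun d a b =>
    hℓ.one_lt.ne' (Nat.dvd_one.1 (by simpa using Nat.dvd_sub a b))
  have h1 : ¬ ℓ ∣ 1 := hℓ.not_dvd_one
  have hp : ¬ ℓ ∣ Fintype.card F + 1 := fun a => hne _ a h
  have hm : ¬ ℓ ∣ Fintype.card F - 1 := hne _ (by
    rwa [show Fintype.card F - 1 + 1 = Fintype.card F by have := Fintype.one_lt_card (α := F); omega])
  have hp' : ¬ ℓ ∣ (Fintype.card F + 1) / 2 := fun a => hp (a.trans (Dvd.intro_left 2 (by omega)))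
  have hm' : ¬ ℓ ∣ (Fintype.card F - 1) / 2 := fun a => hm (a.trans (Dvd.intro_left 2 (by omega)))
  obtain ⟨hP, hB, -⟩ := counts_odd hodd
  have := Fintype.one_lt_card (α := F)
  rw [cnt_SL hodd, wt_one h1, wt_zero h, wt_one hp, wt_one hp', wt_one hm, wt_one hm']
  omega

theorem cnt_SL_sub (hodd : Odd (Fintype.card F)) {ℓ : ℕ} (hℓ : ℓ.Prime) (hℓ2 : ℓ ≠ 2)
    (h : ℓ ∣ Fintype.card F - 1) :
    cnt ℓ (SpecialLinearGroup (Fin 2) F) = (Fintype.card F + 5) / 2 := by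
  have h2 := Nat.odd_iff.1 hodd
  have := Fintype.one_lt_card (α := F)
  have hq : ¬ ℓ ∣ Fintype.card F := fun a => hℓ.one_lt.ne' (Nat.dvd_one.1 (by
    have := Nat.dvd_sub a h
    rwa [show Fintype.card F - (Fintype.card F - 1) = 1 by omega] at this))
  have hp : ¬ ℓ ∣ Fintype.card F + 1 := fun a => hℓ2 ((Nat.prime_dvd_prime_iff_eq hℓ Nat.prime_two).1 (by
    have := Nat.dvd_sub a h
    rwa [show Fintype.card F + 1 - (Fintype.card F - 1) = 2 by omega] at this))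
  have hp' : ¬ ℓ ∣ (Fintype.card F + 1) / 2 := fun a => hp (a.trans (Dvd.intro_left 2 (by omega)))
  have hm' : ℓ ∣ (Fintype.card F - 1) / 2 := by
    rw [show Fintype.card F - 1 = 2 * ((Fintype.card F - 1) / 2) by omega] at h
    exact ((Nat.coprime_primes hℓ Nat.prime_two).2 hℓ2).dvd_of_dvd_mul_left h
  obtain ⟨hP, -, -⟩ := counts_odd hodd
  rw [cnt_SL hodd, wt_one hℓ.not_dvd_one, wt_one hq, wt_one hp, wt_one hp', wt_zero h, wt_zero hm']
  omega

theorem cnt_SL_add (hodd : Odd (Fintype.card F)) {ℓ : ℕ} (hℓ : ℓ.Prime) (hℓ2 : ℓ ≠ 2)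
    (h : ℓ ∣ Fintype.card F + 1) :
    cnt ℓ (SpecialLinearGroup (Fin 2) F) = (Fintype.card F + 7) / 2 := by
  have h2 := Nat.odd_iff.1 hodd
  have := Fintype.one_lt_card (α := F)
  have hq : ¬ ℓ ∣ Fintype.card F := fun a => hℓ.one_lt.ne' (Nat.dvd_one.1 (by
    simpa using Nat.dvd_sub h a))
  have hm : ¬ ℓ ∣ Fintype.card F - 1 := fun a => hℓ2 ((Nat.prime_dvd_prime_iff_eq hℓ Nat.prime_two).1 (by
    have := Nat.dvd_sub h a
    rwa [show Fintype.card F + 1 - (Fintype.card F - 1) = 2 by omega] at this))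
  have hm' : ¬ ℓ ∣ (Fintype.card F - 1) / 2 := fun a => hm (a.trans (Dvd.intro_left 2 (by omega)))
  have hp' : ℓ ∣ (Fintype.card F + 1) / 2 := by
    rw [show Fintype.card F + 1 = 2 * ((Fintype.card F + 1) / 2) by omega] at h
    exact ((Nat.coprime_primes hℓ Nat.prime_two).2 hℓ2).dvd_of_dvd_mul_left h
  obtain ⟨-, hB, -⟩ := counts_odd hodd
  rw [cnt_SL hodd, wt_one hℓ.not_dvd_one, wt_one hq, wt_zero h, wt_zero hp', wt_one hm, wt_one hm']
  omega

theorem cnt_SL_two (hodd : Odd (Fintype.card F)) :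
    cnt 2 (SpecialLinearGroup (Fin 2) F) = 4 := by
  have h2 := Nat.odd_iff.1 hodd
  have := Fintype.one_lt_card (α := F)
  rw [cnt_SL hodd, wt_zero (show 2 ∣ Fintype.card F + 1 by omega),
    wt_zero (show 2 ∣ Fintype.card F - 1 by omega), wt_one (show ¬ 2 ∣ 1 by omega),
    wt_one (show ¬ 2 ∣ Fintype.card F by omega)]
  by_cases h : 2 ∣ (Fintype.card F + 1) / 2
  · rw [wt_zero h, wt_one (show ¬ 2 ∣ (Fintype.card F - 1) / 2 by omega)]
    omega
  · rw [wt_one h, wt_zero (show 2 ∣ (Fintype.card F - 1) / 2 by omega)]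
    omega

end Cfsg.Agent.TwoGroups.McKaySL2
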