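import Mathlib
import Cfsg.Agent.S2431
import Cfsg.Agent.S2437
import Cfsg.Agent.KnownA.GL2.TorusNorm
import Cfsg.Agent.TwoGroups.McKaySL2.Groups

/-!
# The Sylow normalisers of `SL₂(q)`
-/

set_option autoImplicit false
set_option linter.style.haveILetI false
set_option linter.unusedSectionVars false

open Cfsg Matrix Cfsg.Agent.KnownA.GL2
open scoped commutatorElement

namespace Cfsg.Agent.TwoGroups.McKaySL2

variable {F : Type*} [Field F] [Fintype F] [DecidableEq F]

local notation "SL₂" => SpecialLinearGroup (Fin 2) F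

theorem card_group : Nat.card SL₂ = Fintype.card F * (Fintype.card F ^ 2 - 1) :=
  Linear.card_SL_two

theorem fac_group {ℓ : ℕ} : (Nat.card SL₂).factorization ℓ =
    (Fintype.card F).factorization ℓ +
      ((Fintype.card F + 1).factorization ℓ + (Fintype.card F - 1).factorization ℓ) := by
  have hq : 1 < Fintype.card F := Fintype.one_lt_card
  rw [card_group, show Fintype.card F ^ 2 - 1 = (Fintype.card F + 1) * (Fintype.card F - 1) from
      Nat.sq_sub_sq _ 1, Nat.factorization_mul (by omega) (Nat.mul_ne_zero (by omega) (by omega)),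
    Nat.factorization_mul (by omega) (by omega), Finsupp.add_apply, Finsupp.add_apply]

theorem dvd_cases {ℓ : ℕ} (hℓ : ℓ.Prime) (h : ℓ ∣ Nat.card SL₂) :
    ℓ ∣ Fintype.card F ∨ ℓ ∣ Fintype.card F + 1 ∨ ℓ ∣ Fintype.card F - 1 := by
  rw [card_group, show Fintype.card F ^ 2 - 1 = (Fintype.card F + 1) * (Fintype.card F - 1) from
      Nat.sq_sub_sq _ 1] at h
  rcases hℓ.dvd_mul.1 h with h | h
  · exact Or.inl h
  · exact Or.inr (hℓ.dvd_mul.1 h)

theorem sylow_trivial {ℓ : ℕ} [Fact ℓ.Prime] (h : ¬ ℓ ∣ Nat.card SL₂) (S : Sylow ℓ SL₂) :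
    Subgroup.normalizer ((S : Subgroup SL₂) : Set SL₂) = ⊤ := by
  have hS : (S : Subgroup SL₂) = ⊥ := by
    refine Subgroup.card_eq_one.1 ?_
    rw [S.card_eq_multiplicity, Nat.factorization_eq_zero_of_not_dvd h, pow_zero]
  rw [hS]
  exact Subgroup.normalizer_eq_top_iff.2 inferInstance

theorem cnt_top {ℓ : ℕ} [Fact ℓ.Prime] (h : ¬ ℓ ∣ Nat.card SL₂) (S : Sylow ℓ SL₂) :
    cnt ℓ (Subgroup.normalizer ((S : Subgroup SL₂) : Set SL₂)) = cnt ℓ SL₂ := by
  have e := (MulEquiv.subgroupCongr (sylow_trivial h S)).trans Subgroup.topEquiv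
  rw [cnt_eq_of_not_dvd h, cnt_eq_of_not_dvd (by rwa [Nat.card_congr e.toEquiv]), classes_congr e]

/-! ### The characteristic -/

theorem mem_uS {u : SL₂} : u ∈ (uS (F := F)).range ↔ u.1 1 0 = 0 ∧ u.1 0 0 = 1 := by
  constructor
  · rintro ⟨c, rfl⟩
    show (bS 1 _).1 1 0 = 0 ∧ (bS 1 _).1 0 0 = 1
    simp [bS_val]
  · rintro ⟨h1, h2⟩
    obtain ⟨⟨a, c⟩, hac⟩ := (borelEquivS (F := F)).surjective ⟨u, (mem_borelSL u).2 h1⟩
    have hu : bS a c = u := congrArg Subtype.val hac
    subst hu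
    have ha : a = 1 := Units.ext (by simpa [bS_val] using h2)
    subst ha
    exact ⟨Multiplicative.ofAdd c, rfl⟩

theorem normalizer_uS :
    Subgroup.normalizer ((uS (F := F)).range : Set SL₂) =
      (upperTriangularGL 2 F).comap SpecialLinearGroup.toGL := by
  have key : ∀ g : SL₂, g.1 1 0 = 0 → ∀ u ∈ (uS (F := F)).range, g * u * g⁻¹ ∈ (uS (F := F)).range := by
    intro g hg u hu
    rw [mem_uS] at hu ⊢
    have hdet := g.2
    rw [det_fin_two, hg, mul_zero, sub_zero] at hdet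
    have hinv : (g⁻¹ : SL₂).1 = !![g.1 1 1, -g.1 0 1; -g.1 1 0, g.1 0 0] := by
      exact adjugate_fin_two g.1
    constructor
    · show (g.1 * u.1 * (g⁻¹ : SL₂).1) 1 0 = 0
      simp [hinv, Matrix.mul_apply, Fin.sum_univ_two, hg, hu.1]
    · show (g.1 * u.1 * (g⁻¹ : SL₂).1) 0 0 = 1
      simp [hinv, Matrix.mul_apply, Fin.sum_univ_two, hg, hu.1, hu.2]
      linear_combination hdet
  apply le_antisymm
  · intro g hg
    show g ∈ (upperTriangularGL 2 F).comap SpecialLinearGroup.toGL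
    rw [mem_borelSL]
    have h1 : bS (1 : Fˣ) (1 : F) ∈ (uS (F := F)).range := ⟨Multiplicative.ofAdd 1, rfl⟩
    have h2 := (mem_uS.1 ((Subgroup.mem_normalizer_iff.1 hg _).1 h1)).1
    have hinv : (g⁻¹ : SL₂).1 = !![g.1 1 1, -g.1 0 1; -g.1 1 0, g.1 0 0] := by
      exact adjugate_fin_two g.1
    have h3 : (g.1 * (bS (1 : Fˣ) (1 : F)).1 * (g⁻¹ : SL₂).1) 1 0 = 0 := h2
    simp [hinv, bS_val, Matrix.mul_apply, Fin.sum_univ_two] at h3
    have h4 : g.1 1 0 * g.1 1 0 = 0 := by linear_combination -h3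
    exact mul_self_eq_zero.1 h4
  · intro g hg
    have hg0 : g.1 1 0 = 0 := (mem_borelSL g).1 hg
    rw [Subgroup.mem_normalizer_iff]
    refine fun u => ⟨key g hg0 u, fun h => ?_⟩
    have hg' : (g⁻¹ : SL₂).1 1 0 = 0 :=
      (mem_borelSL _).1 (Subgroup.inv_mem ((upperTriangularGL 2 F).comap SpecialLinearGroup.toGL) hg)
    simpa [mul_assoc] using key g⁻¹ hg' _ h

theorem uS_comm {a b : SL₂} (ha : a ∈ (uS (F := F)).range) (hb : b ∈ (uS (F := F)).range) :
    a * b = b * a := by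
  obtain ⟨x, rfl⟩ := ha
  obtain ⟨y, rfl⟩ := hb
  rw [← map_mul, ← map_mul, mul_comm]

theorem card_uS : Nat.card (uS (F := F)).range = Fintype.card F := by
  rw [← Nat.card_congr (MonoidHom.ofInjective (f := uS (F := F)) ?_).toEquiv]
  · rw [Nat.card_congr Multiplicative.toAdd, Nat.card_eq_fintype_card]
  · intro x y h
    have := congrArg (fun g : SL₂ => g.1 0 1) h
    simpa [uS, bS_val] using this

theorem cnt_char (hodd : Odd (Fintype.card F)) {ℓ : ℕ} [Fact ℓ.Prime] (h : ℓ ∣ Fintype.card F)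
    (S : Sylow ℓ SL₂) :
    cnt ℓ (Subgroup.normalizer ((S : Subgroup SL₂) : Set SL₂)) = Fintype.card F + 3 := by
  classical
  have hℓ : ℓ.Prime := Fact.out
  have hq : 1 < Fintype.card F := Fintype.one_lt_card
  obtain ⟨p, -, n, hp, hpn⟩ := FiniteField.card' F
  have hℓp : ℓ = p := (Nat.prime_dvd_prime_iff_eq hℓ hp).1 (hℓ.dvd_of_dvd_pow (hpn ▸ h))
  have hne : ∀ d, ℓ ∣ d + 1 → ¬ ℓ ∣ d := fun d a b =>
    hℓ.one_lt.ne' (Nat.dvd_one.1 (by simpa using Nat.dvd_sub a b))
  have hm : ¬ ℓ ∣ Fintype.card F - 1 := hne _ (by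
    rwa [show Fintype.card F - 1 + 1 = Fintype.card F by omega])
  have hUc : Nat.card (uS (F := F)).range = ℓ ^ (Nat.card SL₂).factorization ℓ := by
    rw [card_uS, fac_group, Nat.factorization_eq_zero_of_not_dvd (fun a => hne _ a h),
      Nat.factorization_eq_zero_of_not_dvd hm, add_zero, add_zero, hpn, hℓp,
      hp.factorization_pow, Finsupp.single_eq_same]
  let R : Sylow ℓ SL₂ := Sylow.ofCard (uS (F := F)).range hUc
  have hR : (R : Subgroup SL₂) = (uS (F := F)).range := rfl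
  obtain ⟨e⟩ := sylow_normalizer_iso S R
  set N := Subgroup.normalizer ((S : Subgroup SL₂) : Set SL₂)
  haveI : ((S : Subgroup SL₂).subgroupOf N).Normal := Subgroup.normal_in_normalizer
  have hcomm : ∀ a ∈ (S : Subgroup SL₂).subgroupOf N, ∀ b ∈ (S : Subgroup SL₂).subgroupOf N,
      a * b = b * a := by
    intro a ha b hb
    obtain ⟨g, hg⟩ := MulAction.exists_smul_eq SL₂ R S
    have hS : (S : Subgroup SL₂) = (R : Subgroup SL₂).map (MulAut.conj g).toMonoidHom := by
      rw [← hg]; rfl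
    rw [Subgroup.mem_subgroupOf, hS, hR] at ha hb
    obtain ⟨x, hx, hx'⟩ := ha
    obtain ⟨y, hy, hy'⟩ := hb
    refine Subtype.ext ?_
    rw [Subgroup.coe_mul, Subgroup.coe_mul, ← hx', ← hy', ← map_mul, ← map_mul, uS_comm hx hy]
  have hNc : Nat.card N = Fintype.card F * (Fintype.card F - 1) := by
    rw [← Nat.card_congr e.toEquiv, hR, normalizer_uS, ← Nat.card_congr borelEquivS, Nat.card_prod,
      Nat.card_units, Nat.card_eq_fintype_card, mul_comm]
  have hidx : ((S : Subgroup SL₂).subgroupOf N).index = Fintype.card F - 1 := by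
    have h1 := ((S : Subgroup SL₂).subgroupOf N).index_mul_card
    rw [Nat.card_congr (Subgroup.subgroupOfEquivOfLe Subgroup.le_normalizer).toEquiv, hNc,
      S.card_eq_multiplicity, ← hUc, card_uS] at h1
    exact Nat.eq_of_mul_eq_mul_right (show 0 < Fintype.card F by omega) (by rw [h1, mul_comm])
  rw [cnt_eq_of_abelian _ hcomm (hidx ▸ hm), ← classes_congr e, hR, normalizer_uS]
  exact S2437.result hodd

/-! ### Odd primes dividing the order of a torus -/

theorem cnt_torus (hodd : Odd (Fintype.card F)) {ℓ : ℕ} [Fact ℓ.Prime] (hℓ : ℓ ≠ 2)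
    {T : Subgroup SL₂} (hT : IsTor T) (hdvd : ℓ ∣ Nat.card T)
    (hfac : (Nat.card T).factorization ℓ = (Nat.card SL₂).factorization ℓ) (S : Sylow ℓ SL₂) :
    2 * cnt ℓ (Subgroup.normalizer ((S : Subgroup SL₂) : Set SL₂)) = Nat.card T + 6 := by
  classical
  have h4 : ∃ d ∈ T, ¬ IsScalar (d : SL₂).1 := exists_nonscalar (by
    have h1 := Nat.le_of_dvd Nat.card_pos hdvd
    have h2 := (Fact.out : ℓ.Prime).two_le
    omega)
  obtain ⟨Q⟩ : Nonempty (Sylow ℓ T) := inferInstance
  let R : Sylow ℓ SL₂ := Sylow.ofCard ((Q : Subgroup T).map T.subtype) (by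
    rw [Subgroup.card_map_of_injective T.subtype_injective, Q.card_eq_multiplicity, hfac])
  have hRT : (R : Subgroup SL₂) ≤ T := Subgroup.map_subtype_le _
  obtain ⟨hCR, -, hNR⟩ := hT.sylow_facts hodd hℓ hdvd hfac R
  have hC : Subgroup.centralizer ((R : Subgroup SL₂) : Set SL₂) = T := by
    refine (Subgroup.eq_of_le_of_card_ge (fun t ht => ?_) hCR.le).symm
    exact Subgroup.mem_centralizer_iff.2 fun z hz => hT.comm (hRT hz) ht
  have hN : Subgroup.normalizer ((R : Subgroup SL₂) : Set SL₂) =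
      Subgroup.normalizer (T : Set SL₂) := by
    refine Subgroup.eq_of_le_of_card_ge (fun g hg => ?_) (by rw [hT.card_normalizer hodd h4, hNR])
    have fwd : ∀ g' ∈ Subgroup.normalizer ((R : Subgroup SL₂) : Set SL₂),
        ∀ t ∈ T, g' * t * g'⁻¹ ∈ T := by
      intro g' hg' t ht
      rw [← hC] at ht ⊢
      rw [Subgroup.mem_centralizer_iff] at ht ⊢
      intro z hz
      have hz' : g'⁻¹ * z * g' ∈ (R : Subgroup SL₂) := by
        have := (Subgroup.mem_normalizer_iff.1 (inv_mem hg') z).1 hz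
        rwa [inv_inv] at this
      have e := ht _ hz'
      calc z * (g' * t * g'⁻¹) = g' * (g'⁻¹ * z * g' * t) * g'⁻¹ := by group
        _ = g' * (t * (g'⁻¹ * z * g')) * g'⁻¹ := by rw [e]
        _ = g' * t * g'⁻¹ * z := by group
    rw [Subgroup.mem_normalizer_iff]
    refine fun t => ⟨fwd g hg t, fun h => ?_⟩
    simpa [mul_assoc] using fwd g⁻¹ (inv_mem hg) _ h
  obtain ⟨e⟩ := sylow_normalizer_iso S R
  obtain ⟨hCS, hcyc, hNS⟩ := hT.sylow_facts hodd hℓ hdvd hfac S
  set N := Subgroup.normalizer ((S : Subgroup SL₂) : Set SL₂)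
  set C := Subgroup.centralizer ((S : Subgroup SL₂) : Set SL₂) with hCdef
  have hCN : C ≤ N := by
    intro x hx
    rw [hCdef, Subgroup.mem_centralizer_iff] at hx
    refine Subgroup.mem_normalizer_iff.2 fun y => ⟨fun hy => ?_, fun hy => ?_⟩
    · rwa [← hx y hy, mul_inv_cancel_right]
    · have h1 := hx _ hy
      rw [inv_mul_cancel_right] at h1
      rwa [← mul_left_cancel h1] at hy
  have hidx : (C.subgroupOf N).index = 2 := by
    have h1 := (C.subgroupOf N).index_mul_card
    rw [Nat.card_congr (Subgroup.subgroupOfEquivOfLe hCN).toEquiv, hCS, hNS] at h1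
    exact Nat.eq_of_mul_eq_mul_right Nat.card_pos h1
  haveI : (C.subgroupOf N).Normal := Subgroup.normal_of_index_eq_two hidx
  have hcomm : ∀ a ∈ C.subgroupOf N, ∀ b ∈ C.subgroupOf N, a * b = b * a := by
    intro a ha b hb
    haveI := hcyc
    letI : CommGroup C := hcyc.commGroup
    exact Subtype.ext (congrArg Subtype.val (mul_comm (⟨(a : SL₂), ha⟩ : C) ⟨(b : SL₂), hb⟩) :)
  have hnd : ¬ ℓ ∣ (C.subgroupOf N).index := by
    rw [hidx]
    exact fun h => hℓ ((Nat.prime_dvd_prime_iff_eq Fact.out Nat.prime_two).1 h)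
  rw [cnt_eq_of_abelian _ hcomm hnd, ← classes_congr e, hN]
  exact hT.card_classes hodd h4

/-! ### The prime two -/

theorem eq_neg_one_of_involution (hodd : Odd (Fintype.card F)) {g : SL₂} (h : g * g = 1)
    (h1 : g ≠ 1) : g = -1 :=
  ((scalar_iff g).1 (scalar_of_sq_eq_one hodd h)).resolve_left h1

theorem cnt_two_three (hodd : Odd (Fintype.card F))
    (h : Fintype.card F % 8 = 3 ∨ Fintype.card F % 8 = 5) (S : Sylow 2 SL₂) :
    cnt 2 (Subgroup.normalizer ((S : Subgroup SL₂) : Set SL₂)) = 4 := by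
  classical
  have hq : 1 < Fintype.card F := Fintype.one_lt_card
  obtain ⟨hCS, -, hNS⟩ := S2431.result hodd S
  have hS8 : Nat.card S = 8 := by
    obtain ⟨t, ht⟩ : ∃ t, Fintype.card F = 4 * t + 1 ∨ Fintype.card F = 4 * t + 3 :=
      ⟨Fintype.card F / 4, by omega⟩
    have key : ∀ n, n % 8 = 4 → n.factorization 2 = 2 := fun n hn => by
      rw [show n = 2 ^ 2 * (n / 4) by omega, Nat.factorization_mul (by norm_num) (by omega),
        Finsupp.add_apply, Nat.prime_two.factorization_pow, Finsupp.single_eq_same,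
        Nat.factorization_eq_zero_of_not_dvd (show ¬ 2 ∣ n / 4 by omega)]
    rw [S.card_eq_multiplicity, card_group, S2431.two_part t (by omega) ht]
    split_ifs with h'
    · rw [key _ (by omega)]; norm_num
    · rw [key _ (by omega)]; norm_num
  set N := Subgroup.normalizer ((S : Subgroup SL₂) : Set SL₂)
  have hN : Nat.card N = 24 := by rw [hNS h, hS8]
  set S' := (S : Subgroup SL₂).subgroupOf N
  haveI hS'n : S'.Normal := Subgroup.normal_in_normalizer
  have hS'c : Nat.card S' = 8 := by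
    rw [Nat.card_congr (Subgroup.subgroupOfEquivOfLe Subgroup.le_normalizer).toEquiv, hS8]
  have hS'i : S'.index = 3 := by
    have := S'.index_mul_card
    rw [hS'c, hN] at this
    omega
  haveI : Fact (Nat.Prime 3) := ⟨Nat.prime_three⟩
  obtain ⟨x, hx⟩ := exists_prime_orderOf_dvd_card' 3 (show 3 ∣ Nat.card N by rw [hN]; norm_num)
  have hxc : ¬ ∀ s ∈ S', x * s = s * x := by
    intro hall
    have hmem : (x : SL₂) ∈ Subgroup.center SL₂ := by
      rw [← hCS, Subgroup.mem_centralizer_iff]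
      intro s hs
      exact (congrArg Subtype.val (hall ⟨s, Subgroup.le_normalizer hs⟩ hs)).symm
    have h2 : (x : SL₂) ^ 2 = 1 := by
      rcases (scalar_iff _).1 ((mem_center_iff_scalar _).1 hmem) with e | e <;> rw [e] <;> simp
    have h3 := orderOf_dvd_of_pow_eq_one h2
    rw [Subgroup.orderOf_coe, hx] at h3
    norm_num at h3
  have h3q : Nat.card (N ⧸ S') = 3 := hS'i
  have hle : commutator N ≤ S' := by
    haveI : IsCyclic (N ⧸ S') := isCyclic_of_prime_card h3q
    letI : CommGroup (N ⧸ S') := IsCyclic.commGroup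
    have := Abelianization.commutator_subset_ker (QuotientGroup.mk' S')
    rwa [QuotientGroup.ker_mk'] at this
  have heq : commutator N = S' := by
    refine hle.antisymm ?_
    by_contra hlt
    set K := commutator N
    have hKlt : Nat.card K ≤ 4 := by
      have h1 : Nat.card K ∣ 2 ^ 3 := by
        rw [show (2 : ℕ) ^ 3 = 8 from rfl, ← hS'c]
        exact Subgroup.card_dvd_of_le hle
      have h2 : Nat.card K ≠ 8 := fun e =>
        hlt (Subgroup.eq_of_le_of_card_ge hle (by rw [hS'c, e])).ge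
      obtain ⟨j, hj, hje⟩ := (Nat.dvd_prime_pow Nat.prime_two).1 h1
      rw [hje] at h2 ⊢
      interval_cases j <;> simp_all
    have hx3 : x ^ 3 = 1 := orderOf_dvd_iff_pow_eq_one.1 (dvd_of_eq hx)
    have hfix : ∀ k ∈ K, x * k * x⁻¹ = k := by
      intro k hk
      by_cases hk1 : k = 1
      · rw [hk1, mul_one, mul_inv_cancel]
      have hev : 2 ∣ Nat.card K := by
        have h1 : Nat.card K ∣ 2 ^ 3 := by
          rw [show (2 : ℕ) ^ 3 = 8 from rfl, ← hS'c]
          exact Subgroup.card_dvd_of_le hle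
        obtain ⟨j, -, hje⟩ := (Nat.dvd_prime_pow Nat.prime_two).1 h1
        rcases Nat.eq_zero_or_pos j with rfl | hj0
        · exact absurd (Subgroup.mem_bot.1 (Subgroup.card_eq_one.1 hje ▸ hk)) hk1
        · exact hje ▸ dvd_pow_self 2 hj0.ne'
      haveI : Fact (Nat.Prime 2) := ⟨Nat.prime_two⟩
      obtain ⟨z, hz⟩ := exists_prime_orderOf_dvd_card' 2 hev
      have hz1 : (z : N) ≠ 1 := fun e => by
        rw [show z = 1 from Subtype.ext e, orderOf_one] at hz
        norm_num at hz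
      have hzz : ((z : N) : SL₂) * ((z : N) : SL₂) = 1 := by
        have h2 := orderOf_dvd_iff_pow_eq_one.1 (dvd_of_eq hz)
        rw [sq] at h2
        exact congrArg (fun w : K => ((w : N) : SL₂)) h2
      have hzv : ((z : N) : SL₂) = -1 :=
        eq_neg_one_of_involution hodd hzz fun e => hz1 (Subtype.ext e)
      refine fixes_of_small hKlt hx3 z.2 hz1 (Subtype.ext ?_) k hk
      show (x : SL₂) * ((z : N) : SL₂) * (x : SL₂)⁻¹ = ((z : N) : SL₂)
      rw [hzv]
      simp
    refine hxc fun s hs => comm_of_commutator hx3 hfix (fun c hc => ?_) s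
    have h1 : (⟨c, hle hc⟩ : S') ^ Nat.card S' = 1 := pow_card_eq_one'
    rw [hS'c] at h1
    exact congrArg Subtype.val h1
  exact cnt_two_of_card_24 hN (by rw [heq, hS'i])

theorem cnt_two (hodd : Odd (Fintype.card F)) (S : Sylow 2 SL₂) :
    cnt 2 (Subgroup.normalizer ((S : Subgroup SL₂) : Set SL₂)) = 4 := by
  have h2 := Nat.odd_iff.1 hodd
  by_cases h : Fintype.card F % 8 = 3 ∨ Fintype.card F % 8 = 5
  · exact cnt_two_three hodd h S
  obtain ⟨-, hN, -⟩ := S2431.result hodd S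
  obtain ⟨p, hch⟩ := CharP.exists F
  haveI := hch
  haveI : Fact p.Prime :=
    ⟨(CharP.char_is_prime_or_zero F p).resolve_right (CharP.char_ne_zero_of_finite F p)⟩
  have hp : p ≠ 2 := fun e => two_ne_zero_of_odd hodd (by subst e; exact CharTwo.two_eq_zero)
  obtain ⟨k, hk, ⟨e⟩⟩ := Linear.sylow_two_SL2 p hp S
  exact cnt_two_of_quaternion hk ((MulEquiv.subgroupCongr (hN (by omega))).trans e)

end Cfsg.Agent.TwoGroups.McKaySL2
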